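import Cfsg.Agent.H10.SuzT.S4.RTab

set_option autoImplicit false
set_option linter.all false

namespace Cfsg.Agent.H10.SuzT

open Cfsg.Agent.H35 Cfsg.Spor

theorem s4_rchk_4 : allR s4_rf 5238 10 (4 * 2 ^ 10) = true := by decide +kernel
theorem s4_rchk_5 : allR s4_rf 5238 10 (5 * 2 ^ 10) = true := by decide +kernel

end Cfsg.Agent.H10.SuzT
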