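import Cfsg.Agent.H10.SuzT.S4.RChk0
import Cfsg.Agent.H10.SuzT.S4.RChk1
import Cfsg.Agent.H10.SuzT.S4.RChk2

set_option autoImplicit false
set_option linter.all false

namespace Cfsg.Agent.H10.SuzT

open Cfsg.Agent.H35 Cfsg.Spor

theorem s4_rall : ∀ p, p < 5238 → s4_rf p = true := by
  apply allR_blocks s4_rf 5238 10 6 _ (by decide)
  intro k hk
  interval_cases k
  · exact s4_rchk_0
  · exact s4_rchk_1
  · exact s4_rchk_2
  · exact s4_rchk_3
  · exact s4_rchk_4
  · exact s4_rchk_5

theorem s4_circ_ok : circChk (fullW s4_rws s4_prels) s4_circT 0 s4_ccert = true := by decide +kernel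
theorem s4_hc_ok : allR (fun c => hcChk s4_rsw s4_hc1T s4_hc2T c) 3 2 0 = true := by decide +kernel
theorem s4_h0 : RData.aord (s4_rd.ent 0 1) = 0 := by decide +kernel

end Cfsg.Agent.H10.SuzT
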